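import Cfsg.Agent.Lib.Blocks.Omega
import Cfsg.Agent.Lib.Jordan.GaloisNorm

/-!
# The blocks do not depend on the maximal ideal above `p`
-/

set_option autoImplicit false
set_option linter.unusedSectionVars false
set_option linter.style.haveILetI false

open Cfsg Polynomial

namespace CfsgLib.Blocks

variable {G : Type*} [Group G] [Finite G]

/-- An embedding of a cyclotomic field into `ℂ` raises roots of unity to a power prime to `n`. -/
theorem exists_embedding_pow (n : ℕ) [NeZero n] (φ : Jordan.cycField n →ₐ[ℚ] ℂ) :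
    ∃ t : ℕ, t.Coprime n ∧ ∀ z : Jordan.cycField n, (z : ℂ) ^ n = 1 → φ z = (z : ℂ) ^ t := by
  have hζ := Complex.isPrimitiveRoot_exp n (NeZero.ne n)
  let ζ : Jordan.cycField n := ⟨_, IntermediateField.mem_adjoin_simple_self ℚ _⟩
  have hζ' : IsPrimitiveRoot ζ n :=
    hζ.of_map_of_injective (f := (Jordan.cycField n).val) Subtype.val_injective
  have hφ : IsPrimitiveRoot (φ ζ) n := hζ'.map_of_injective φ.injective
  obtain ⟨t, -, htc, ht⟩ := (IsPrimitiveRoot.isPrimitiveRoot_iff hζ).mp hφ
  refine ⟨t, htc, fun z hz => ?_⟩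
  obtain ⟨i, -, rfl⟩ := hζ'.eq_pow_of_pow_eq_one (show z ^ n = 1 from Subtype.ext (by simpa using hz))
  rw [map_pow, ← ht, ← pow_mul, SubmonoidClass.coe_pow, ← pow_mul, mul_comm i t]

theorem centralizer_pow_of_coprime {g : G} {n t : ℕ} (hg : g ^ n = 1) (ht : t.Coprime n) :
    Subgroup.centralizer ({g ^ t} : Set G) = Subgroup.centralizer ({g} : Set G) := by
  obtain ⟨s, hs⟩ := exists_pow_eq_self_of_coprime
    (Nat.Coprime.coprime_dvd_right (orderOf_dvd_of_pow_eq_one hg) ht)
  ext x
  simp only [Subgroup.mem_centralizer_singleton_iff]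
  exact ⟨fun h => hs ▸ ((show Commute x (g ^ t) from h).pow_right s).eq,
    fun h => ((show Commute x g from h).pow_right t).eq⟩

theorem irr_mem_cycField (χ : IrrCharacter G) (g : G) :
    (χ : G → ℂ) g ∈ Jordan.cycField (Nat.card G) := by
  haveI : NeZero (Nat.card G) := ⟨Nat.card_pos.ne'⟩
  exact Jordan.mem_cycField (CharTheory.IsIrrCharacter.isCharacter χ.2) pow_card_eq_one'

theorem embedding_irr [NeZero (Nat.card G)] (φ : Jordan.cycField (Nat.card G) →ₐ[ℚ] ℂ) {t : ℕ}
    (ht : ∀ z : Jordan.cycField (Nat.card G), (z : ℂ) ^ Nat.card G = 1 → φ z = (z : ℂ) ^ t)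
    (χ : IrrCharacter G) (g : G) :
    φ ⟨(χ : G → ℂ) g, irr_mem_cycField χ g⟩ = (χ : G → ℂ) (g ^ t) := by
  obtain ⟨d, l, hl, hpow⟩ := Jordan.exists_roots_of_isCharacter
    (CharTheory.IsIrrCharacter.isCharacter χ.2) (g := g) (n := Nat.card G) pow_card_eq_one'
  let L : Fin d → Jordan.cycField (Nat.card G) := fun i =>
    ⟨l i, Jordan.mem_cycField_of_pow_eq_one (hl i)⟩
  have hzL : (⟨(χ : G → ℂ) g, irr_mem_cycField χ g⟩ : Jordan.cycField (Nat.card G)) = ∑ i, L i :=
    Subtype.ext (by
      rw [AddSubmonoidClass.coe_finsetSum]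
      simpa [L] using hpow 1)
  rw [hpow, hzL, map_sum]
  exact Finset.sum_congr rfl fun i _ => ht (L i) (hl i)

theorem centralChar_mem_cycField (χ : IrrCharacter G) (g : G) :
    centralChar (χ : G → ℂ) g ∈ Jordan.cycField (Nat.card G) :=
  div_mem (mul_mem (natCast_mem _ _) (irr_mem_cycField χ g)) (irr_mem_cycField χ 1)

theorem embedding_centralChar [NeZero (Nat.card G)]
    (φ : Jordan.cycField (Nat.card G) →ₐ[ℚ] ℂ) {t : ℕ} (htc : t.Coprime (Nat.card G))
    (ht : ∀ z : Jordan.cycField (Nat.card G), (z : ℂ) ^ Nat.card G = 1 → φ z = (z : ℂ) ^ t)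
    (χ : IrrCharacter G) (g : G) :
    φ ⟨centralChar (χ : G → ℂ) g, centralChar_mem_cycField χ g⟩ =
      centralChar (χ : G → ℂ) (g ^ t) := by
  have e : (⟨centralChar (χ : G → ℂ) g, centralChar_mem_cycField χ g⟩ :
      Jordan.cycField (Nat.card G)) =
      ((Subgroup.centralizer ({g} : Set G)).index : Jordan.cycField (Nat.card G)) *
        ⟨(χ : G → ℂ) g, irr_mem_cycField χ g⟩ / ⟨(χ : G → ℂ) 1, irr_mem_cycField χ 1⟩ :=
    Subtype.ext (by
      show centralChar (χ : G → ℂ) g = _
      simp [centralChar_apply])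
  rw [e, map_div₀, map_mul, map_natCast, embedding_irr φ ht χ g, embedding_irr φ ht χ 1,
    one_pow, centralChar_apply, centralizer_pow_of_coprime pow_card_eq_one' htc]

/-- Central characters congruent modulo one maximal ideal above `p` are congruent modulo every
one. -/
theorem memLocalIdeal_centralChar_sub_of_sameBlock {p : ℕ} [Fact p.Prime] {M M' : Ideal AlgInt}
    [M.IsPrime] [M'.IsPrime] (hM : IsPModular p M) (hM' : IsPModular p M')
    {χ ψ : IrrCharacter G} (h : SameBlock M (χ : G → ℂ) (ψ : G → ℂ)) (g : G) :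
    MemLocalIdeal M' (centralChar (χ : G → ℂ) g - centralChar (ψ : G → ℂ) g) := by
  classical
  haveI : NeZero (Nat.card G) := ⟨Nat.card_pos.ne'⟩
  haveI := charP_res hM
  haveI := charP_res hM'
  haveI : FiniteDimensional ℚ (Jordan.cycField (Nat.card G)) :=
    IntermediateField.adjoin.finiteDimensional
      ((Complex.isPrimitiveRoot_exp _ (NeZero.ne _)).isIntegral (NeZero.pos _)).tower_top
  set d := centralChar (χ : G → ℂ) g - centralChar (ψ : G → ℂ) g with hd
  have hint : IsIntegral ℤ d := (isIntegral_centralChar χ g).sub (isIntegral_centralChar ψ g)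
  set P := minpoly ℤ d with hP
  have hmon : P.Monic := minpoly.monic hint
  -- all roots lie in the ideal of `M`
  have hroots : ∀ z ∈ (P.map (algebraMap ℤ ℂ)).roots, MemLocalIdeal M z := by
    intro z hz
    set dK : Jordan.cycField (Nat.card G) :=
      ⟨centralChar (χ : G → ℂ) g, centralChar_mem_cycField χ g⟩ -
        ⟨centralChar (ψ : G → ℂ) g, centralChar_mem_cycField ψ g⟩ with hdK
    have hdK' : IsIntegral ℤ dK :=
      (isIntegral_algHom_iff ((Jordan.cycField (Nat.card G)).val.restrictScalars ℤ)
        Subtype.val_injective).mp hint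
    have hmin : minpoly ℤ dK = P := by
      rw [hP, ← minpoly.algHom_eq ((Jordan.cycField (Nat.card G)).val.restrictScalars ℤ)
        Subtype.val_injective dK]
      rfl
    have hzmem : z ∈ (minpoly ℚ dK).rootSet ℂ := by
      rw [minpoly.isIntegrallyClosed_eq_field_fractions' ℚ hdK', hmin,
        Polynomial.mem_rootSet_of_ne ((hmon.map _).ne_zero), Polynomial.aeval_map_algebraMap,
        Polynomial.aeval_def, ← Polynomial.eval_map]
      exact (Polynomial.mem_roots (hmon.map _).ne_zero).mp hz
    rw [← Algebra.IsAlgebraic.range_eval_eq_rootSet_minpoly] at hzmem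
    obtain ⟨φ, rfl⟩ := hzmem
    obtain ⟨t, htc, ht⟩ := exists_embedding_pow (Nat.card G) φ
    simp only [hdK, map_sub, embedding_centralChar φ htc ht]
    exact h (g ^ t)
  -- hence the polynomial is a power of `X` modulo `p`
  have hPp : P.map (Int.castRingHom (ZMod p)) = X ^ P.natDegree := by
    refine Polynomial.map_injective (ZMod.castHom (dvd_refl p) (Res M)) (RingHom.injective _) ?_
    rw [Polynomial.map_map, Polynomial.map_pow, Polynomial.map_X]
    set rs := (P.map (algebraMap ℤ ℂ)).roots with hrs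
    let rs' : Multiset (locRing M) :=
      rs.attach.map fun z => ⟨z.1, memLocalRing_of_memLocalIdeal (hroots z.1 z.2)⟩
    have h1 : P.map (Int.castRingHom (locRing M)) = (rs'.map fun z => X - C z).prod := by
      refine Polynomial.map_injective (locRing M).subtype Subtype.val_injective ?_
      rw [Polynomial.map_map, Polynomial.map_multiset_prod, Multiset.map_map,
        show (locRing M).subtype.comp (Int.castRingHom _) = algebraMap ℤ ℂ from
          RingHom.ext_int _ _,
        (IsAlgClosed.splits _).eq_prod_roots_of_monic (hmon.map _), Multiset.map_map, ← hrs]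
      conv_lhs => rw [← Multiset.attach_map_val rs, Multiset.map_map]
      congr 1
      refine Multiset.map_congr rfl fun z _ => ?_
      simp
    rw [show (ZMod.castHom (dvd_refl p) (Res M)).comp (Int.castRingHom (ZMod p)) =
      (red M).comp (Int.castRingHom (locRing M)) from RingHom.ext_int _ _, ← Polynomial.map_map,
      h1, Polynomial.map_multiset_prod, Multiset.map_map, Multiset.map_map,
      Multiset.map_congr rfl (g := fun _ => (X : (Res M)[X])), Multiset.map_const',
      Multiset.prod_replicate]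
    · congr 1
      rw [Multiset.card_attach, hrs, IsAlgClosed.card_roots_eq_natDegree,
        Polynomial.natDegree_map_eq_of_injective (algebraMap ℤ ℂ).injective_int]
    · intro z _
      simp only [Function.comp_apply, Polynomial.map_sub, Polynomial.map_X, Polynomial.map_C]
      rw [show red M _ = 0 from (red_eq_zero_iff _).mpr (hroots z.1 z.2), map_zero, sub_zero]
  -- so the element is nilpotent modulo `M'`
  have hdR : MemLocalRing M' d := memLocalRing_of_isIntegral hint
  set δ : locRing M' := ⟨d, hdR⟩ with hδ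
  have h0 : P.eval₂ (Int.castRingHom (locRing M')) δ = 0 := by
    refine Subtype.val_injective (α := ℂ) ?_
    rw [ZeroMemClass.coe_zero, ← Subring.coe_subtype, Polynomial.hom_eval₂,
      show (locRing M').subtype.comp (Int.castRingHom _) = algebraMap ℤ ℂ from RingHom.ext_int _ _]
    exact minpoly.aeval ℤ d
  have h1 := congrArg (red M') h0
  rw [Polynomial.hom_eval₂, map_zero,
    show (red M').comp (Int.castRingHom _) =
      (ZMod.castHom (dvd_refl p) (Res M')).comp (Int.castRingHom (ZMod p)) from RingHom.ext_int _ _,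
    ← Polynomial.eval₂_map, hPp, Polynomial.eval₂_X_pow] at h1
  exact (red_eq_zero_iff δ).mp (IsReduced.eq_zero _ ⟨_, h1⟩)

end CfsgLib.Blocks
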