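import Cfsg.Agent.Lib.Blocks.CenterTwist
import Cfsg.Agent.Lib.BlockLocal.KernelSupport
import Cfsg.Agent.Lib.Frobenius.Induce

/-!
# Induced central characters and induced blocks
-/

set_option autoImplicit false
set_option linter.unusedSectionVars false
set_option linter.style.haveILetI false

open scoped ComplexConjugate
open MonoidAlgebra Cfsg

namespace CfsgLib.Blocks

variable {G : Type*} [Group G] [Fintype G]

/-- The induced central character is the central character of the induced function. -/
theorem inducedCentralChar_eq_centralChar_indFun (H : Subgroup G) (ξ : H → ℂ) (g : G) :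
    inducedCentralChar H ξ g = centralChar (indFun H ξ) g := by
  classical
  rw [← BlockLocal.sum_conj_extend_eq_inducedCentralChar H ξ g,
    ← BlockLocal.sum_conj_eq_centralChar (CfsgLib.Frobenius.indFun_isClassFunction H ξ) g]
  simp only [show (fun h => ξ h / ξ 1) = (ξ 1)⁻¹ • ξ from funext fun h => by
      rw [Pi.smul_apply, smul_eq_mul, div_eq_inv_mul],
    CfsgLib.Frobenius.extendByZero_smul, CfsgLib.Frobenius.indFun_one]
  rw [← Finset.mul_sum, ← Finset.sum_div]
  have key : ∑ k ∈ Finset.univ.filter (IsConj g), indFun H ξ k =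
      (H.index : ℂ) * ∑ k ∈ Finset.univ.filter (IsConj g), extendByZero H ξ k := by
    simp only [indFun]
    rw [← Finset.mul_sum, Finset.sum_comm]
    have hx : ∀ x : G, ∑ k ∈ Finset.univ.filter (IsConj g), extendByZero H ξ (x⁻¹ * k * x) =
        ∑ k ∈ Finset.univ.filter (IsConj g), extendByZero H ξ k := fun x => by
      refine Finset.sum_equiv (MulAut.conj x⁻¹).toEquiv (fun k => ?_) fun k _ => ?_
      · simp only [Finset.mem_filter, Finset.mem_univ, true_and, MulEquiv.toEquiv_eq_coe,
          EquivLike.coe_coe, MulAut.conj_apply, inv_inv]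
        rw [show x⁻¹ * k * x = x⁻¹ * k * x⁻¹⁻¹ by group]
        exact (isConj_conj_iff g x⁻¹ k).symm
      · simp
    rw [Finset.sum_congr rfl fun x _ => hx x, Finset.sum_const, Finset.card_univ, nsmul_eq_mul,
      Fintype.card_eq_nat_card, ← H.card_mul_index, Nat.cast_mul]
    have : (Nat.card H : ℂ) ≠ 0 := Nat.cast_ne_zero.2 Nat.card_pos.ne'
    field_simp
  rw [key]
  have hidx : (H.index : ℂ) ≠ 0 := Nat.cast_ne_zero.2 Subgroup.index_ne_zero_of_finite
  rw [mul_div_mul_left _ _ hidx, div_eq_inv_mul]

section Blocks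

variable {p : ℕ} {M : Ideal AlgInt} [M.IsPrime] (H : Subgroup G)

/-- Congruent characters of a subgroup have congruent induced central characters. -/
theorem memLocalIdeal_inducedCentralChar_sub_of_sameBlock {ξ ξ' : IrrCharacter H}
    (h : SameBlock M (ξ : H → ℂ) (ξ' : H → ℂ)) (g : G) :
    MemLocalIdeal M (inducedCentralChar H (ξ : H → ℂ) g -
      inducedCentralChar H (ξ' : H → ℂ) g) := by
  classical
  have hS : ∀ c x : H, c * x * c⁻¹ ∈ {h : H | IsConj g (h : G)} ↔
      x ∈ {h : H | IsConj g (h : G)} := fun c x => by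
    show IsConj g _ ↔ IsConj g _
    push_cast
    rw [isConj_conj_iff]
  have key : ∀ η : IrrCharacter H, inducedCentralChar H (η : H → ℂ) g =
      (omegaLoc M η (indA (locRing M) _ hS) : ℂ) := fun η => by
    rw [inducedCentralChar, finsum_mem_div_eq_omega, coe_omegaLoc]
    congr 1
    refine MonoidAlgebra.ext (Finsupp.ext fun x => ?_)
    rw [coeff_ofFun, coeff_mapRingHom, coeff_indA, apply_ite (locRing M).subtype, map_one,
      map_zero]
    congr!
  have e := RingHom.congr_fun ((omegaRes_eq_iff M ξ ξ').mpr h)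
    (classMap (red M) (indA (locRing M) _ hS))
  rw [omegaRes_classMap, omegaRes_classMap, red_eq_red_iff] at e
  rw [key, key]
  exact e

/-- Induction of an irreducible character induces its block. -/
theorem isInducedBlock_blockOf_indFun (ξ : IrrCharacter H)
    (hind : IsIrrCharacter G (indFun H (ξ : H → ℂ))) :
    IsInducedBlock M H (blockOf M (ξ : H → ℂ)) (blockOf M (indFun H (ξ : H → ℂ))) := by
  refine ⟨isPBlock_blockOf ξ, isPBlock_blockOf ⟨_, hind⟩, fun ξ' hξ' χ hχ g => ?_⟩
  have h1 := memLocalIdeal_inducedCentralChar_sub_of_sameBlock H hξ' g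
  have h2 := hχ g
  rw [inducedCentralChar_eq_centralChar_indFun H (ξ : H → ℂ) g] at h1
  simpa using memLocalIdeal_sub h2 h1

/-- Every member of a block lies below some member of the induced block. -/
theorem exists_constituent_of_isInducedBlock [Fintype H] {b : Set (IrrCharacter H)}
    {B : Set (IrrCharacter G)} (hind : IsInducedBlock M H b B) {ξ : IrrCharacter H} (hξ : ξ ∈ b) :
    ∃ χ ∈ B, classInner (fun h : H => (χ : G → ℂ) h) (ξ : H → ℂ) ≠ 0 := by
  classical
  haveI := Fintype.ofFinite (IrrCharacter G)
  by_contra hno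
  push Not at hno
  apply not_memLocalIdeal_one (M := M)
  obtain ⟨χ, hχ⟩ := isPBlock_nonempty hind.2.1
  have h := BlockLocal.memLocalIdeal_sum_sub_of_isInducedBlock hind hξ hχ
    (CharTheory.IsIrrCharacter.isClassFunction χ.2) (a := fun x => blockCoeff B x)
    (fun x c => blockCoeff_conj B c x) (memLocalRing_blockCoeff hind.2.1)
  have h0 : ∑ k : H, blockCoeff B k * (ξ : H → ℂ) k = 0 := by
    simp only [blockCoeff_eq_sum B, Finset.mul_sum, Finset.sum_mul]
    rw [Finset.sum_comm]
    refine Finset.sum_eq_zero fun ψ _ => ?_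
    by_cases hψ : ψ ∈ B
    · have h' := congrArg conj (hno ψ hψ)
      simp only [classInner, map_mul, map_sum, map_zero, mul_eq_zero, map_inv₀, map_natCast,
        inv_eq_zero, Nat.cast_eq_zero, Nat.card_pos.ne', false_or, Complex.conj_conj] at h'
      simp only [if_pos hψ]
      rw [← mul_zero ((Nat.card G : ℂ)⁻¹ * (ψ : G → ℂ) 1), ← h', Finset.mul_sum]
      exact Finset.sum_congr rfl fun k _ => by ring
    · simp [hψ]
  rw [h0, zero_div, BlockLocal.sum_blockCoeff_mul_div B χ, if_pos hχ, zero_sub] at h
  simpa using memLocalIdeal_neg h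

end Blocks

end CfsgLib.Blocks
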