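import Cfsg.Agent.Lib.Blocks.Defect
import Cfsg.Agent.Lib.PSolvable.HallHigman

/-!
# Blocks of `p`-constrained groups
-/

set_option autoImplicit false
set_option linter.unusedSectionVars false
set_option linter.style.haveILetI false

open MonoidAlgebra Cfsg

namespace CfsgLib.Blocks

variable {G : Type*} [Group G] [Finite G] {p : ℕ} [Fact p.Prime] {M : Ideal AlgInt} [M.IsPrime]

/-- On a normal `p`-subgroup every central character is congruent to the class size. -/
theorem memLocalIdeal_centralChar_sub_index (hM : IsPModular p M) (N : Subgroup G) [N.Normal]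
    (hN : IsPGroup p N) (χ : IrrCharacter G) {g : G} (hg : g ∈ N) :
    MemLocalIdeal M (centralChar (χ : G → ℂ) g -
      ((Subgroup.centralizer ({g} : Set G)).index : ℂ)) := by
  classical
  haveI := Fintype.ofFinite G
  haveI := charP_res hM
  set K := (Subgroup.centralizer ({g} : Set G)).index with hK
  have hcard : (Finset.univ.filter fun x : G => IsConj g x).card = K := card_filter_isConj g
  have hnil : IsNilpotent (classSum (ZMod p) g - (K : MonoidAlgebra (ZMod p) G)) := by
    refine isNilpotent_of_mapDomain_eq_zero N hN ?_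
    rw [map_sub, map_natCast, classSum_eq_sum, map_sum, sub_eq_zero]
    rw [Finset.sum_congr rfl (g := fun _ => (1 : MonoidAlgebra (ZMod p) (G ⧸ N))) fun x hx => ?_]
    · rw [Finset.sum_const, nsmul_one, ← hcard]
      congr!
    · simp only [Finset.mem_filter, Finset.mem_univ, true_and] at hx
      obtain ⟨c, rfl⟩ := isConj_iff.mp hx
      rw [mapDomainRingHom_apply, MonoidAlgebra.mapDomain_single,
        show QuotientGroup.mk' N (c * g * c⁻¹) = 1 from
          (QuotientGroup.eq_one_iff _).mpr (Subgroup.Normal.conj_mem inferInstance g hg c)]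
      rfl
  have h2 := hnil.map (mapRingHom G (ZMod.castHom (dvd_refl p) (Res M)))
  rw [map_sub, map_natCast, map_classSum] at h2
  obtain ⟨n, hn⟩ := h2
  have h3 : omegaRes M χ (classSumA (Res M) g - (K : classAlg (Res M) G)) = 0 :=
    (IsNilpotent.map ⟨n, Subtype.ext (by simpa [coe_classSumA] using hn)⟩
      (omegaRes M χ) : IsNilpotent (omegaRes M χ
        (classSumA (Res M) g - (K : classAlg (Res M) G)))).eq_zero
  rw [map_sub, map_natCast, omegaRes_classSumA, ← map_natCast (red M), ← map_sub,
    red_eq_zero_iff] at h3
  exact h3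

/-- A `p`-solvable group without normal `p'`-subgroups has one block. -/
theorem sameBlock_of_isPSolvable (hM : IsPModular p M) (hsolv : IsPSolvable p G)
    (hcore : pPrimeCore p G = ⊥) (χ ψ : IrrCharacter G) :
    SameBlock M (χ : G → ℂ) (ψ : G → ℂ) := by
  intro g
  by_cases hg : g ∈ Subgroup.centralizer (pCore p G : Set G)
  · have hgP := CfsgLib.PSolvable.centralizer_pCore_le hsolv hcore hg
    have := memLocalIdeal_sub
      (memLocalIdeal_centralChar_sub_index hM _ (CfsgLib.Cores.isPGroup_pCore p G) χ hgP)
      (memLocalIdeal_centralChar_sub_index hM _ (CfsgLib.Cores.isPGroup_pCore p G) ψ hgP)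
    simpa using this
  · have h : ∀ η : IrrCharacter G, MemLocalIdeal M (centralChar (η : G → ℂ) g) := fun η => by
      by_contra hn
      exact hg (mem_centralizer_pCore hM hn)
    exact memLocalIdeal_sub (h χ) (h ψ)

end CfsgLib.Blocks
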